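import Cfsg.Agent.Lib.Helper3.S6b.Mat
import Cfsg.Agent.Lib.Helper3.Graph7
import Cfsg.Agent.Lib.Helper3.B22.CardB2

set_option autoImplicit false
set_option maxRecDepth 100000

namespace Cfsg.Agent.Lib.Helper3.S6b

open Cfsg.Agent.Lib.Helper11 Cfsg.Agent.Lib.Helper3 Matrix

set_option maxHeartbeats 0

/-- the index type -/
abbrev II : Type := Cfsg.Lie.chevB2.Idx

/-- numbering of the coordinates -/
def ee : II ≃ Fin 10 where
  toFun
    | .inl i => ⟨i.val, by have := i.2; simp only [Cfsg.Lie.chevB2] at this; omega⟩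
    | .inr i => ⟨2 + i.val, by have := i.2; simp only [Cfsg.Lie.chevB2] at this; omega⟩
  invFun k := if h : k.val < 2 then .inl ⟨k.val, h⟩ else .inr ⟨k.val - 2, by
    have := k.2; simp only [Cfsg.Lie.chevB2]; omega⟩
  left_inv := by decide
  right_inv := by decide

theorem lenR (w : List ℕ) : ∀ W ∈ w.map RR, W.length ≤ 10 := by
  intro W hW
  obtain ⟨x, _, rfl⟩ := List.mem_map.1 hW
  unfold RR
  split <;> simp

theorem lenT (w : List ℕ) : ∀ W ∈ w.map RT, W.length ≤ 10 := by
  intro W hW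
  obtain ⟨x, _, rfl⟩ := List.mem_map.1 hW
  unfold RT
  split <;> simp

theorem RR_eq : ∀ x ∈ xs, toM ee (RR x) = Cfsg.Lie.chevB2.xMat (ZMod 2) (rootOf x).1 (rootOf x).2 := by
  decide +kernel

theorem RT_eq : ∀ x ∈ xs, toM ee (RT x) = (toM ee (RR x))ᵀ := by
  decide +kernel

theorem sqOK : ∀ x ∈ xs, ∀ j < 10, mvW ([x, x].map RR) (basL 10 j) = mvW ([].map RR) (basL 10 j) := by
  decide +kernel

theorem sq_mat (x : ℕ) (hx : x ∈ xs) : toM ee (RR x) * toM ee (RR x) = 1 := by
  have := prod_toM_eq ee ([x, x].map RR) ([].map RR) (lenR _) (lenR _) (sqOK x hx)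
  simpa using this

/-- the Chevalley group -/
abbrev GG : Subgroup (GL II (ZMod 2)) := Cfsg.Lie.chevB2.group (ZMod 2)

open Classical in
/-- the root elements -/
noncomputable def rr (x : ℕ) : GG :=
  if hx : x ∈ xs then
    ⟨⟨toM ee (RR x), toM ee (RR x), sq_mat x hx, sq_mat x hx⟩,
      Subgroup.subset_closure ⟨(rootOf x).1, (rootOf x).2, RR_eq x hx⟩⟩
  else 1

/-- matrices of the elements -/
def TT : GG →* Matrix II II (ZMod 2) := (Units.coeHom _).comp GG.subtype

/-- the dual action -/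
def TD : GG →* Matrix II II (ZMod 2) where
  toFun g := (TT g⁻¹)ᵀ
  map_one' := by simp
  map_mul' a b := by
    rw [_root_.mul_inv_rev, map_mul, Matrix.transpose_mul]

theorem TD_rr (x : ℕ) (hx : x ∈ xs) : TD (rr x) = toM ee (RT x) := by
  rw [RT_eq x hx]
  show (TT (rr x)⁻¹)ᵀ = _
  unfold rr
  rw [dif_pos hx]
  rfl

theorem TD_word (w : List ℕ) (hw : ∀ l ∈ w, l ∈ xs) :
    TD ((w.map rr).prod) = ((w.map RT).map (toM ee)).prod := by
  induction w with
  | nil => simp
  | cons a t ih =>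
    rw [List.map_cons, List.prod_cons, map_mul, TD_rr a (hw a (by simp)),
      ih (fun l hl => hw l (by simp [hl]))]
    simp

noncomputable def vM (l : ℕ) : GG :=
  if l = 1 then (w1.map rr).prod else if l = 2 then (w2.map rr).prod else 1

theorem card_b2 : Nat.card GG = 720 := by
  have h := Cfsg.Agent.Lib.Helper3.B22c.card_B2 (F := ZMod 2) (q := 2) (by simp)
  norm_num at h
  exact h

/-- the points -/
def pp : Fin 6 → II → ZMod 2 := fun i => toV ee (pt i)

theorem pp_inj : Function.Injective pp := by decide +kernel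

theorem prodOK1 : ∀ j < 10, mvW (w1.map RT) (basL 10 j) = mvW [AL] (basL 10 j) := by decide +kernel
theorem prodOK2 : ∀ j < 10, mvW (w2.map RT) (basL 10 j) = mvW [BL] (basL 10 j) := by decide +kernel

theorem c_eq_one (c : ZMod 2) (hc : c ≠ 0) : c = 1 := by
  revert c
  decide

theorem b2_iso : Nonempty (GG ≃* lgrp (vL ntl deg) [1, 2]) := by
  apply iso_of_graph_fun_card (projGraph TD pp) _ vM (vL ntl deg) [1, 2] _ 720 (by norm_num) card_eq card_b2
  · intro σ hσ
    rw [mem_projGraph] at hσ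
    ext i
    obtain ⟨c, hc, h⟩ := hσ i
    rw [map_one, Matrix.one_mulVec, c_eq_one c hc, one_smul] at h
    rw [← pp_inj h]
    rfl
  · intro x hx
    simp only [List.mem_cons, List.mem_nil_iff, or_false] at hx
    rcases hx with rfl | rfl
    · exact setup.mem_projGraph_of_chkW TD _ ee [AL] (by decide)
        ((TD_word w1 (by decide)).trans (prod_toM_eq ee _ _ (lenT _) (by decide) prodOK1)) pt
        (fun i => ptOf_length _ _ _ _ _) _ _ 1 chk1
    · exact setup.mem_projGraph_of_chkW TD _ ee [BL] (by decide)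
        ((TD_word w2 (by decide)).trans (prod_toM_eq ee _ _ (lenT _) (by decide) prodOK2)) pt
        (fun i => ptOf_length _ _ _ _ _) _ _ 2 chk2

theorem s6_iso : Nonempty (GG ≃* Equiv.Perm (Fin 6)) := by
  obtain ⟨e⟩ := b2_iso
  have htop : lgrp (vL ntl deg) [1, 2] = ⊤ := by
    apply Subgroup.eq_top_of_card_eq
    rw [card_eq, Nat.card_eq_fintype_card, Fintype.card_perm]
    rfl
  exact ⟨e.trans ((MulEquiv.subgroupCongr htop).trans Subgroup.topEquiv)⟩

end Cfsg.Agent.Lib.Helper3.S6b
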