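import Mathlib

set_option autoImplicit false
set_option maxRecDepth 100000

namespace Cfsg.Agent.Lib.Helper3.S6b.L2

noncomputable def fc0_0 (i : ℕ) : ℕ := (nat_lit 0x400006600000300008500000400006700000300008800000100004600000200002500000000000600000000000500000300008700000400006800000100004800000200002700000000000b00000000000b00000000000a000000000009000002000086000004000045000001000065000003000026000000000047000002000008000000000028000001000007)
noncomputable def sc0_0 (i : ℕ) : ℕ := (nat_lit 0x600000f000009000015000005000012000009000010000006000000000b000600000d00001100000300001200000e0005000500001100000100000e00030004000006000100030000090000000000060003000200000b000001000008000300010000fffe0000fffe0000ffff0000ffff0000ffff0000ffff)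
noncomputable def nc0_0 (i : ℕ) : ℕ := (nat_lit 0x4000003000002000001000000)
noncomputable def cc0_0 (i : ℕ) : ℕ := (nat_lit 0x300001500000200000600000400000f00000400001600000100000c000001000012000000000000000003000005000002000003000000000010)

end Cfsg.Agent.Lib.Helper3.S6b.L2
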