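import Cfsg.Agent.Lib.Helper3.Stcs6

set_option autoImplicit false
set_option maxRecDepth 100000

namespace Cfsg.Agent.Lib.Helper3.S6b

open Cfsg.Agent.Lib.Helper11 Cfsg.Agent.Lib.Helper3

set_option maxHeartbeats 0

noncomputable def ntl : List (List (ℕ × ℕ)) := [[], [(0x7, 4), (0x10, 2), (0x10, 1), (0x0, 2), (0x6, 4)], [(0xf, 4), (0x10, 2), (0x11, 1), (0x20, 2), (0xc, 4)], [(0x1, 4), (0x3, 2), (0x4, 1), (0x2, 2), (0x0, 4)], [(0x3, 4), (0x1, 2), (0x14, 1), (0x2, 2), (0x0, 4)], [(0xc, 4), (0x10, 2), (0x10, 1), (0x20, 2), (0xc, 4)], [(0xc, 4), (0x10, 2), (0x40, 1), (0x20, 2), (0xc, 4)], [(0xe, 4), (0x30, 2), (0x0, 1), (0x0, 2), (0xc, 4)], [(0x6, 4), (0x12, 2), (0x0, 1), (0x0, 2), (0x4, 4)], [(0xc, 4), (0x10, 2), (0x10, 1), (0x20, 2), (0xc, 4)], [(0xc, 4), (0x10, 2), (0x40, 1), (0x20, 2), (0xc, 4)], [(0x4, 4), (0x10, 2), (0x0, 1), (0x0, 2), (0x4, 4)], [(0x8, 4), (0x20, 2),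 (0x10, 1), (0x0, 2), (0x8, 4)], [(0x8, 4), (0x0, 2), (0x10, 1), (0x20, 2), (0x8, 4)], [(0x0, 4), (0x0, 2), (0x10, 1), (0x0, 2), (0x0, 4)], [(0x0, 4), (0x0, 2), (0x10, 1), (0x0, 2), (0x0, 4)]]
noncomputable def INV : ℕ := 583670377281417224687712
abbrev deg : ℕ := 6

theorem setup : NetSetup ntl deg 3 INV 15 where
  hok := by decide +kernel
  hstab := by decide +kernel
  hlen := by decide +kernel
  h0 := by decide +kernel
  hINV := by decide +kernel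
  hINV0 := by decide +kernel
  htriv := by decide +kernel

end Cfsg.Agent.Lib.Helper3.S6b
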