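import Mathlib

set_option autoImplicit false
set_option maxRecDepth 100000

namespace Cfsg.Agent.Lib.Helper3.S6b.L3

noncomputable def fc0_0 (i : ℕ) : ℕ := (nat_lit 0x300006b00000300006b00000200000b00000000004b00000300004a00000200006900000100002b00000100002b00000000000e00000000000e00000000000d00000000000c00000100006a00000300002900000000004900000200000a00000000002a000001000009)
noncomputable def sc0_0 (i : ℕ) : ℕ := (nat_lit 0x200000d00000100000d00000e00000500000a00000200000000000e00000a000b000400000b0000060002000300000700000b00000800030002000009000001000008000300010000fffe0000fffe0000ffff0000ffff0000ffff)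
noncomputable def nc0_0 (i : ℕ) : ℕ := (nat_lit 0x3000002000001000000)
noncomputable def cc0_0 (i : ℕ) : ℕ := (nat_lit 0x300001000000100000400000000000f00000300000c00000100000a00000000000000000200000e000002000003)

end Cfsg.Agent.Lib.Helper3.S6b.L3
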