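import Cfsg.Agent.Lib.Helper3.S6b.L4D
import Cfsg.Agent.Lib.Helper3.S6b.Net

set_option autoImplicit false
set_option maxRecDepth 100000

namespace Cfsg.Agent.Lib.Helper3.S6b.L4

open Cfsg.Agent.Lib.Helper11 Cfsg.Agent.Lib.Helper3

set_option maxHeartbeats 0
set_option Elab.async false

noncomputable def fc (i : ℕ) : ℕ := (fc0_0 i)
noncomputable def sc (i : ℕ) : ℕ := (sc0_0 i)
noncomputable def nc (i : ℕ) : ℕ := (nc0_0 i)
noncomputable def cc (i : ℕ) : ℕ := (cc0_0 i)

def isH (l : ℕ) : Bool := decide (l ∈ [15])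
def gens : List ℕ := [12, 14]
def hl : List ℕ := [15]
def dl : List (List ℕ × ℕ) := [([12], 13), ([14], 15)]
def BR_0 : List (List ℕ) := [[], [14, 15], [12, 12, 12], [12, 12, 14, 12, 12, 14]]
def BR : List (List ℕ) := BR_0
set_option maxRecDepth 10000000 in
noncomputable def rt : RT := (.node 2 (.node 1 (.leaf 0 0 []) (.leaf 2 1 [12, 12, 12])) (.node 3 (.leaf 1 0 [14, 15]) (.leaf 3 5 [14, 12, 12, 14, 12, 12])))

theorem b0 : allR (guardB 1 (blk fc sc rt.get Cfsg.Agent.Lib.Helper3.S6b.INV isH)) 1 0 = true := by decide +kernel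
theorem c0 : allR (guardB 1 (cblk fc nc cc 256 3 79228162514264337593543950336 gens)) 1 0 = true := by decide +kernel

theorem chkAll : ∀ j < 1, blk fc sc rt.get Cfsg.Agent.Lib.Helper3.S6b.INV isH j = true :=
  guardB_spec (D := 1) b0 (by norm_num)

theorem clAll : ∀ jb < 1, cblk fc nc cc (256 * 1) 3 79228162514264337593543950336 gens jb = true :=
  guardB_spec (D := 1) c0 (by norm_num)

theorem hid_0 : BR_0.all (wordId (ntOf Cfsg.Agent.Lib.Helper3.S6b.ntl) 3) = true := by decide +kernel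
theorem hid : BR.all (wordId (ntOf Cfsg.Agent.Lib.Helper3.S6b.ntl) 3) = true := by
  simp only [BR, List.all_append, hid_0, Bool.and_self]

theorem card_eq : Nat.card (lgrp (vL Cfsg.Agent.Lib.Helper3.S6b.ntl Cfsg.Agent.Lib.Helper3.S6b.deg) gens) = 3 * Nat.card (lgrp (vL Cfsg.Agent.Lib.Helper3.S6b.ntl Cfsg.Agent.Lib.Helper3.S6b.deg) hl) :=
  Cfsg.Agent.Lib.Helper3.S6b.setup.level gens hl dl BR (by decide +kernel) (by decide +kernel) hid (by decide +kernel)
    (by decide +kernel) rt (by decide +kernel) isH (fun l h => of_decide_eq_true h) fc sc nc cc 1 1 3 79228162514264337593543950336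
    (by norm_num) (by norm_num) (by decide +kernel) (by decide) chkAll clAll
    3 3 1 (by norm_num [Cfsg.Agent.Lib.Helper3.S6b.deg]) (by norm_num [Cfsg.Agent.Lib.Helper3.S6b.deg]) (by decide +kernel) (by decide +kernel)

theorem ub {M : Type*} [Group M] (w : ℕ → M) (h0 : w 0 = 1) (hinv : ∀ l, w (invL Cfsg.Agent.Lib.Helper3.S6b.INV l) = (w l)⁻¹)
    (hBR : ∀ r ∈ BR, (r.map w).prod = 1)
    (hdlr : ∀ r ∈ dl.map (fun p => p.1 ++ [p.2]), (r.map w).prod = 1) (N : ℕ) (hN : Bd w hl N) :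
    Bd w gens (3 * N) :=
  level_bd w Cfsg.Agent.Lib.Helper3.S6b.INV h0 hinv gens hl dl BR (by decide +kernel) hdlr hBR (by decide +kernel) (by decide +kernel)
    rt (by decide +kernel) isH (fun l h => of_decide_eq_true h) fc sc nc cc 1 1 3 79228162514264337593543950336
    (by norm_num) (by norm_num) (by decide +kernel) (by decide) chkAll clAll N hN

end Cfsg.Agent.Lib.Helper3.S6b.L4
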