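import Mathlib

set_option autoImplicit false
set_option maxRecDepth 100000

namespace Cfsg.Agent.Lib.Helper3.S6b.L4

noncomputable def fc0_0 (i : ℕ) : ℕ := (nat_lit 0x200002e00000100004e00000000000e00000000000e00000100004d00000200002c00000000000f00000000000f00000000004c00000200000d00000000002d00000100000c)
noncomputable def sc0_0 (i : ℕ) : ℕ := (nat_lit 0x30000090000010000060000030005000300000300010002000005000002000200010000fffe0000ffff0000ffff)
noncomputable def nc0_0 (i : ℕ) : ℕ := (nat_lit 0x2000001000000)
noncomputable def cc0_0 (i : ℕ) : ℕ := (nat_lit 0x100000b00000100000600000200000a000000000000000000000008000002000003)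

end Cfsg.Agent.Lib.Helper3.S6b.L4
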